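import Cfsg.Agent.H845.TW.Mix

/-!
# S2452, S2464 for `PSp_2n(q)`, `q` odd, `4 ∣ n`: the cases

`f = minpoly ξ` of degree `n - 1`, `dim V = 2 n`: `CC1 B f g` or `CC1 B f (-g)` for every isometry `g`.
-/

set_option autoImplicit false
open Polynomial

noncomputable section

namespace Cfsg.Agent.H845.TW

open Cfsg.Agent.H144 Cfsg.Agent.H144.War Cfsg.Agent.H843.TC6

/-- singular vectors, `4 ≤ a` -/
def SpFour : Prop := ∀ {F V : Type} [Field F] [Finite F] [AddCommGroup V] [Module F V] [FiniteDimensional F V]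
  (_ : (2 : F) ≠ 0) {B : LinearMap.BilinForm F V} (_ : Alt B) {g : V ≃ₗ[F] V} (_ : Iso B g) {R : Submodule F V}
  (_ : Nd B R) (_ : Inv g R) {a : ℕ} (_ : 4 ≤ a) (_ : Module.finrank F R = 2 * a) (_ : C1On B g R), SP B g R

/-- singular vectors, `a = 2` -/
def SpTwo : Prop := ∀ {F V : Type} [Field F] [Finite F] [AddCommGroup V] [Module F V] [FiniteDimensional F V]
  (_ : (2 : F) ≠ 0) {B : LinearMap.BilinForm F V} (_ : Alt B) {g : V ≃ₗ[F] V} (_ : Iso B g) {R : Submodule F V}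
  (_ : Nd B R) (_ : Inv g R) (_ : Module.finrank F R = 2 * 2) (_ : C1On B g R), SP B g R ∨ C1On B (ng g) R

/-- the dichotomy -/
def Or1 : Prop := ∀ {F V K : Type} [Field F] [Finite F] [AddCommGroup V] [Module F V] [FiniteDimensional F V]
  [Field K] [Algebra F K] [FiniteDimensional F K] (_ : (2 : F) ≠ 0) {n : ℕ} (_ : 4 ∣ n) (_ : 4 ≤ n) {ξ : K}
  (_ : Gx F (n - 1) ξ) {B : LinearMap.BilinForm F V} (_ : Alt B) (_ : Nond B) (_ : Module.finrank F V = 2 * n)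
  {g : V ≃ₗ[F] V} (_ : Iso B g), CC1 B (minpoly F ξ) g ∨ CC1 B (minpoly F ξ) (ng g)

variable {F V : Type} [Field F] [Finite F] [AddCommGroup V] [Module F V] [FiniteDimensional F V]
  {K : Type} [Field K] [Algebra F K] [FiniteDimensional F K]

omit [Finite F] in
theorem c1On_of_mix {B : LinearMap.BilinForm F V} {g : V ≃ₗ[F] V} {a : ℕ} {R : Submodule F V} (h : Mix B g a 0 R) :
    C1On B g R := by
  obtain ⟨U, W, Q, h1, h2, h3, h4, h5, h6, h7⟩ := h
  have hW : W = ⊥ := Submodule.finrank_eq_zero.1 h5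
  subst hW
  rw [sup_bot_eq] at h1 h3
  exact ⟨U, Q, h1, h2, h3, h6⟩

/-- the corner `1` on `V` -/
theorem all_one (hF : SpFour) (h2 : (2 : F) ≠ 0) {n : ℕ} (hn : 4 ≤ n) {ξ : K} (hξ : Gx F (n - 1) ξ)
    {B : LinearMap.BilinForm F V} (hB : Alt B) (hN : Nond B) (hV : Module.finrank F V = 2 * n) {g : V ≃ₗ[F] V}
    (hg : Iso B g) (h : C1On B g ⊤) : CC1 B (minpoly F ξ) g := by
  have hTN : Nd B ⊤ := fun v _ h => hN v (fun w => h w trivial)
  have hTf : Module.finrank F (⊤ : Submodule F V) = 2 * n := by rw [finrank_top, hV]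
  have h1 : SP B g ⊤ := hF h2 hB hg hTN (fun v _ => trivial) hn hTf h
  have h3 : Mix B g 0 0 ⊥ := mix_of_c1On hB (Nd.bot B) (by simp) (C1On.bot B g)
  exact cc1_mix h2 (by omega) hξ hB hN (orth_bot B ⊤) hTN (Nd.bot B) (by simp) hTf (by simp) (by omega) Even.zero
    (by omega) hg h1 h3

/-- `a`, `b` even -/
theorem case_even (hF : SpFour) (hT : SpTwo) (h2 : (2 : F) ≠ 0) {n : ℕ} (hn : 4 ≤ n) {ξ : K} (hξ : Gx F (n - 1) ξ)
    {B : LinearMap.BilinForm F V} (hB : Alt B) (hN : Nond B) (hV : Module.finrank F V = 2 * n) {g : V ≃ₗ[F] V}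
    (hg : Iso B g) {R' R₁ : Submodule F V} (o1 : Orth B R' R₁) (i1 : Inv g R') (n1 : Nd B R') (n2 : Nd B R₁)
    (hsup : R' ⊔ R₁ = ⊤) (hc : C1On B g R') (hc' : C1On B (ng g) R₁) {a b : ℕ} (ha : Module.finrank F R' = 2 * a)
    (hb : Module.finrank F R₁ = 2 * b) (hab : a + b = n) (hae : Even a) (hbe : Even b) :
    CC1 B (minpoly F ξ) g ∨ CC1 B (minpoly F ξ) (ng g) := by
  have m2 : Mix B g 0 b R₁ := by
    have := (mix_of_c1On hB n2 hb hc').ng
    rwa [ng_ng] at this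
  have fin : 2 ≤ a → SP B g R' → CC1 B (minpoly F ξ) g := fun h3 h4 =>
    cc1_mix h2 (by omega) hξ hB hN o1 n1 n2 hsup ha (by omega) h3 hbe (by omega) hg h4 m2
  have neg : C1On B (ng g) R' → CC1 B (minpoly F ξ) (ng g) := by
    intro h3
    have h4 := C1On.sup hB o1 h3 hc'
    rw [hsup] at h4
    exact all_one hF h2 hn hξ hB hN hV (ng_iso hg) h4
  obtain ⟨c, rfl⟩ := hae
  rcases Nat.lt_or_ge (c + c) 4 with hlt | hge
  · have : c = 0 ∨ c = 1 := by omega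
    rcases this with rfl | rfl
    · right
      have h3 : R' = ⊥ := Submodule.finrank_eq_zero.1 (by omega)
      apply neg
      rw [h3]
      exact C1On.bot B _
    · rcases hT h2 hB hg n1 i1 ha hc with h3 | h3
      · exact Or.inl (fin (by omega) h3)
      · exact Or.inr (neg h3)
  · exact Or.inl (fin (by omega) (hF h2 hB hg n1 i1 hge ha hc))

/-- `a`, `b` odd, `-g ≠ 1` on `R₁` -/
theorem both_half (hF : SpFour) (h2 : (2 : F) ≠ 0) {n : ℕ} (hn : 4 ≤ n) {ξ : K} (hξ : Gx F (n - 1) ξ)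
    {B : LinearMap.BilinForm F V} (hB : Alt B) (hN : Nond B) (hV : Module.finrank F V = 2 * n) {g : V ≃ₗ[F] V}
    (hg : Iso B g) {R' R₁ : Submodule F V} (o1 : Orth B R' R₁) (i1 : Inv g R') (i2 : Inv g R₁) (n1 : Nd B R')
    (n2 : Nd B R₁) (hsup : R' ⊔ R₁ = ⊤) (hc : C1On B g R') (hc' : C1On B (ng g) R₁) {a d : ℕ}
    (ha : Module.finrank F R' = 2 * a) (hb : Module.finrank F R₁ = 2 * (2 * d + 1)) (hab : a + (2 * d + 1) = n)
    (h1 : ¬ ∀ v ∈ R₁, ng g v = v) (hh : d = 0 ∨ 5 ≤ a) : CC1 B (minpoly F ξ) g := by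
  have m2 : Mix B g 1 (2 * d) R₁ := by
    have m3 := (H140.War.reflection h2 hB (ng_iso hg) n2 (inv_ng i2) hb hc' h1).ng
    rwa [ng_ng] at m3
  rcases hh with rfl | h5
  · have h4 := C1On.sup hB o1 hc (c1On_of_mix m2)
    rw [hsup] at h4
    exact all_one hF h2 hn hξ hB hN hV hg h4
  · exact cc1_mix h2 (by omega) hξ hB hN o1 n1 n2 hsup ha (by omega) (by omega) (even_two_mul d) (by omega) hg
      (hF h2 hB hg n1 i1 (by omega) ha hc) m2

/-- `a`, `b` odd, `g = -1` on `R₁`, `g ≠ 1` on `R'` -/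
theorem neg_half (h2 : (2 : F) ≠ 0) {n : ℕ} {ξ : K} (hξ : Gx F (n - 1) ξ) {B : LinearMap.BilinForm F V} (hB : Alt B)
    {g : V ≃ₗ[F] V} (hg : Iso B g) {R' R₁ : Submodule F V} (o1 : Orth B R' R₁) (i1 : Inv g R')
    (n1 : Nd B R') (n2 : Nd B R₁) (hsup : R' ⊔ R₁ = ⊤) (hc : C1On B g R') {c d : ℕ}
    (ha : Module.finrank F R' = 2 * (2 * c + 1)) (hb : Module.finrank F R₁ = 2 * (2 * d + 1))
    (hab : 2 * c + 1 + (2 * d + 1) = n) (h1 : ∀ v ∈ R₁, ng g v = v) (h3 : ¬ ∀ v ∈ R', g v = v) :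
    CC1 B (minpoly F ξ) (ng g) := by
  obtain ⟨S1, hS1, hS1N, hS1f⟩ := exists_sub hB n2 hb 1 (by omega)
  obtain ⟨S2, hS2, hS12, hS12s, hS2N, hS2f, -⟩ := split_off hB hS1 hS1N n2
  have oR2 : Orth B R' S2 := fun x hx y hy => o1 x hx y (hS2 hy)
  have oRS : Orth B (R' ⊔ S2) S1 := orth_sup (fun x hx y hy => o1 x hx y (hS1 hy)) (hS12.symm hB)
  have hRN : Nd B (R' ⊔ S2) := Nd.sup hB oR2 n1 hS2N
  have htop : R' ⊔ S2 ⊔ S1 = ⊤ := by rw [sup_assoc, sup_comm S2, hS12s, hsup]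
  have hI : Inv (ng g) (R' ⊔ S2) := Inv.sup (inv_ng i1) (fun v hv => by rw [h1 v (hS2 hv)]; exact hv)
  have m1 : Mix B (ng g) 1 (2 * c) R' := (H140.War.reflection h2 hB hg n1 i1 ha hc h3).ng
  have m2 : Mix B (ng g) (2 * d) 0 S2 := mix_of_c1On hB hS2N (by omega)
    (exists_lag hB hS2N (ng_iso hg) (fun v hv => h1 v (hS2 hv)))
  have m3 := mix_restrict hI (Mix.sup hB oR2 n1 m1 m2)
  have hfin : Module.finrank F ↥(R' ⊔ S2) = 2 * (n - 1) := by
    rw [finrank_sup_of_orth hB oR2 n1 le_rfl le_rfl]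
    omega
  exact cc1_sup hB oRS hRN hS1N hS1f htop hI (fun v hv => h1 v (hS1 hv))
    (cc_mix h2 hξ (n := n - 1) (Or.inl rfl) (restrict_alt hB _) (restrict_nond hRN) (by omega)
      (by rw [add_zero]; exact even_two_mul c) (by omega) hfin (gr_iso (ng_iso hg) _ hI) m3)

/-- `g = 1` on `R'`, `g = -1` on `R₁`, `a > b` odd -/
theorem inv_half (h2 : (2 : F) ≠ 0) {n : ℕ} {ξ : K} (hξ : Gx F (n - 1) ξ) {B : LinearMap.BilinForm F V} (hB : Alt B)
    {g : V ≃ₗ[F] V} (hg : Iso B g) {R' R₁ : Submodule F V} (o1 : Orth B R' R₁) (n1 : Nd B R') (n2 : Nd B R₁)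
    (hsup : R' ⊔ R₁ = ⊤) {c d : ℕ} (ha : Module.finrank F R' = 2 * (2 * c + 1))
    (hb : Module.finrank F R₁ = 2 * (2 * d + 1)) (hab : 2 * c + 1 + (2 * d + 1) = n) (hdc : d < c)
    (h1 : ∀ v ∈ R', g v = v) (h3 : ∀ v ∈ R₁, g v = -v) : CC1 B (minpoly F ξ) g := by
  obtain ⟨S1, hS1, hS1N, hS1f⟩ := exists_sub hB n1 ha 1 (by omega)
  obtain ⟨S2, hS2, hS12, hS12s, hS2N, hS2f, -⟩ := split_off hB hS1 hS1N n1
  have oR2 : Orth B S2 R₁ := fun x hx y hy => o1 x (hS2 hx) y hy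
  have oRS : Orth B (S2 ⊔ R₁) S1 := orth_sup (hS12.symm hB) (fun x hx y hy => hB.zero (o1 y (hS1 hy) x hx))
  have hRN : Nd B (S2 ⊔ R₁) := Nd.sup hB oR2 hS2N n2
  have htop : S2 ⊔ R₁ ⊔ S1 = ⊤ := by rw [sup_comm, ← sup_assoc, hS12s, hsup]
  have hI : Inv g (S2 ⊔ R₁) := Inv.sup (fun v hv => by rw [h1 v (hS2 hv)]; exact hv)
    (fun v hv => by rw [h3 v hv]; exact R₁.neg_mem hv)
  refine cc1_sup hB oRS hRN hS1N hS1f htop hI (fun v hv => h1 v (hS1 hv)) ?_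
  refine cc_j h2 hξ (r := 2 * c - 1) (d := 2 * d) (even_two_mul d) (by omega) (by omega) (restrict_alt hB _)
    (restrict_nond hRN) (gr_iso hg _ hI) (R' := S2.comap (S2 ⊔ R₁).subtype) (R₁ := R₁.comap (S2 ⊔ R₁).subtype) ?_ ?_ ?_
    ?_ (fun x hx y hy => oR2 x hx y hy) ?_ ?_ ?_
  · rw [(Submodule.comapSubtypeEquivOfLe le_sup_left).finrank_eq]; omega
  · rw [(Submodule.comapSubtypeEquivOfLe le_sup_right).finrank_eq, hb]
  · intro v hv h0
    exact Subtype.ext (hS2N v hv fun w hw => h0 ⟨w, Submodule.mem_sup_left hw⟩ hw)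
  · intro v hv h0
    exact Subtype.ext (n2 v hv fun w hw => h0 ⟨w, Submodule.mem_sup_right hw⟩ hw)
  · rw [eq_top_iff]
    intro v _
    obtain ⟨x, hx, y, hy, hxy⟩ := Submodule.mem_sup.1 v.2
    have e1 : v = (⟨x, Submodule.mem_sup_left hx⟩ : ↥(S2 ⊔ R₁)) + ⟨y, Submodule.mem_sup_right hy⟩ :=
      Subtype.ext hxy.symm
    rw [e1]
    exact Submodule.add_mem_sup hx hy
  · intro v hv
    exact Subtype.ext (h1 v (hS2 hv))
  · intro v hv
    exact Subtype.ext (h3 v hv)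

/-- **the dichotomy** -/
theorem or1_of (hF : SpFour) (hT : SpTwo) : Or1 := by
  intro F V K _ _ _ _ _ _ _ _ h2 n h4 hn ξ hξ B hB hN hV g hg
  have hTN : Nd B ⊤ := fun v _ h => hN v (fun w => h w trivial)
  obtain ⟨P', P₁, o1, i1, i2, n1, n2, hsup, hc, hc', -⟩ := exists_split hB hg _ ⊤ (fun v _ => trivial) hTN rfl
  obtain ⟨a, ha⟩ : ∃ a, Module.finrank F P' = 2 * a := by
    obtain ⟨P, Q, k1, k2, k3, k4⟩ := hc
    exact ⟨_, finrank_lag hB n1 k1 k2 k3⟩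
  obtain ⟨b, hb⟩ : ∃ b, Module.finrank F P₁ = 2 * b := by
    obtain ⟨P, Q, k1, k2, k3, k4⟩ := hc'
    exact ⟨_, finrank_lag hB n2 k1 k2 k3⟩
  have hab : a + b = n := by
    have h3 := finrank_sup_of_orth hB o1 n1 le_rfl le_rfl
    rw [hsup, finrank_top, hV, ha, hb] at h3
    omega
  have hswap : P₁ ⊔ P' = ⊤ := by rw [sup_comm]; exact hsup
  have hcn : C1On B (ng (ng g)) P' := by rw [ng_ng]; exact hc
  rcases Nat.even_or_odd a with hae | hao
  · have hbe : Even b := by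
      obtain ⟨k, hk⟩ := h4
      obtain ⟨c, hc⟩ := hae
      exact ⟨2 * k - c, by omega⟩
    exact case_even hF hT h2 hn hξ hB hN hV hg o1 i1 n1 n2 hsup hc hc' ha hb hab hae hbe
  · have hbo : Odd b := by
      obtain ⟨k, hk⟩ := h4
      obtain ⟨c, hc⟩ := hao
      exact ⟨2 * k - c - 1, by omega⟩
    obtain ⟨c, rfl⟩ := hao
    obtain ⟨d, rfl⟩ := hbo
    by_cases hg1 : ∀ v ∈ P', g v = v
    · have hg1' : ∀ v ∈ P', ng (ng g) v = v := by rw [ng_ng]; exact hg1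
      by_cases hg2 : ∀ v ∈ P₁, ng g v = v
      · have hg2' : ∀ v ∈ P₁, g v = -v := by
          intro v hv
          have := hg2 v hv
          rw [ng_apply] at this
          rw [← this, neg_neg, this]
        have hg1'' : ∀ v ∈ P', ng g v = -v := by
          intro v hv
          rw [ng_apply, hg1 v hv]
        have hne : c ≠ d := by
          rintro rfl
          omega
        rcases Nat.lt_or_ge d c with hdc | hdc
        · exact Or.inl (inv_half h2 hξ hB hg o1 n1 n2 hsup ha hb hab hdc hg1 hg2')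
        · exact Or.inr (inv_half h2 hξ hB (ng_iso hg) (o1.symm hB) n2 n1 hswap hb ha (by omega) (by omega) hg2 hg1'')
      · left
        have h5 := neg_half h2 hξ hB (ng_iso hg) (o1.symm hB) (inv_ng i2) n2 n1 hswap hc' hb ha (by omega) hg1' hg2
        rwa [ng_ng] at h5
    · by_cases hg2 : ∀ v ∈ P₁, ng g v = v
      · exact Or.inr (neg_half h2 hξ hB hg o1 i1 n1 n2 hsup hc ha hb hab hg2 hg1)
      · by_cases hh : d = 0 ∨ 5 ≤ 2 * c + 1
        · exact Or.inl (both_half hF h2 hn hξ hB hN hV hg o1 i1 i2 n1 n2 hsup hc hc' ha hb hab hg2 hh)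
        · right
          refine both_half hF h2 hn hξ hB hN hV (ng_iso hg) (o1.symm hB) (inv_ng i2) (inv_ng i1) n2 n1 hswap hc' hcn hb
            ha (by omega) ?_ (by omega)
          rw [ng_ng]
          exact hg1

end Cfsg.Agent.H845.TW
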