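import Cfsg.Agent.H843.TC6.Psp

/-!
# S2452, S2464 for `PSp_2n(q)`, `q` odd, `4 ∣ n`: elements `(X_{n-1}, 1)` of `GL_{n-1} × Sp_2`

* `L1 B f X` : `X` is a Levi element for a pair of Lagrangians `P`, `Q`, `P = E ⊕ F p`, `f (X) = 0` on `E`, `X p = p`.
* `CC1 B f g` : `g = X Z` with `L1 B f X`, `L1 B f Z`.
* `SP B g R` : a corner `1` on `R` with singular `p ∈ P`, `r ∈ Q`, `B p r ≠ 0`.
-/

set_option autoImplicit false
open Polynomial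

namespace Cfsg.Agent.H845.TW

open Cfsg.Agent.H144 Cfsg.Agent.H144.War Cfsg.Agent.H843.TC6

variable {F V : Type*} [Field F] [AddCommGroup V] [Module F V]

/-- Levi elements `(X_{n-1}, 1)` -/
def L1 (B : LinearMap.BilinForm F V) (f : F[X]) (X : V ≃ₗ[F] V) : Prop :=
  Iso B X ∧ ∃ P Q E : Submodule F V, ∃ p : V, Orth B P P ∧ Orth B Q Q ∧ P ⊔ Q = ⊤ ∧ (∀ v ∈ Q, X v ∈ Q) ∧
    E ⊔ Submodule.span F {p} = P ∧ (∀ v ∈ E, X v ∈ E) ∧ X p = p ∧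
    (∀ v ∈ E, aeval (X : Module.End F V) f v = 0) ∧ Module.finrank F E + 1 = Module.finrank F P

/-- product of two such elements -/
def CC1 (B : LinearMap.BilinForm F V) (f : F[X]) (g : V ≃ₗ[F] V) : Prop :=
  ∃ X Z : V ≃ₗ[F] V, L1 B f X ∧ L1 B f Z ∧ g = X * Z

/-- corner `1` on `R` with singular vectors `p`, `r` -/
def SP (B : LinearMap.BilinForm F V) (g : V ≃ₗ[F] V) (R : Submodule F V) : Prop :=
  ∃ P Q : Submodule F V, Orth B P P ∧ Orth B Q Q ∧ P ⊔ Q = R ∧ (∀ v ∈ P, g v - v ∈ Q) ∧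
    ∃ p ∈ P, ∃ r ∈ Q, B p r ≠ 0 ∧ B (g p) p = 0 ∧ B (g r) r = 0

end Cfsg.Agent.H845.TW
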