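import Cfsg.Agent.H845.TW.Defs

/-!
# S2452, S2464 for `PSp_2n(q)`, `q` odd, `4 ∣ n`: the engine
-/

set_option autoImplicit false
open Polynomial

noncomputable section

namespace Cfsg.Agent.H845.TW

open Cfsg.Agent.H144 Cfsg.Agent.H144.War Cfsg.Agent.H843.TC6

section

variable {F V : Type*} [Field F] [AddCommGroup V] [Module F V]

theorem aeval_fix {X : Module.End F V} {v : V} (h : X v = v) (f : F[X]) : aeval X f v = f.eval 1 • v := by
  have h4 : ∀ k : ℕ, (X ^ k) v = v := by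
    intro k
    induction k with
    | zero => simp
    | succ k ih => rw [pow_succ', Module.End.mul_apply, ih, h]
  induction f using Polynomial.induction_on' with
  | add p q hp hq => rw [map_add, LinearMap.add_apply, hp, hq, eval_add, add_smul]
  | monomial k a =>
    rw [aeval_monomial, Module.algebraMap_end_eq_smul_id, Module.End.mul_apply, LinearMap.smul_apply,
      LinearMap.id_apply, h4, eval_monomial, one_pow, mul_one]

/-- the span of `p` -/
theorem mem_ep {P E : Submodule F V} {p : V} (hE : E ⊔ Submodule.span F {p} = P) {v : V} (hv : v ∈ P) :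
    ∃ e ∈ E, ∃ c : F, v = e + c • p := by
  rw [← hE] at hv
  obtain ⟨e, he, w, hw, rfl⟩ := Submodule.mem_sup.1 hv
  obtain ⟨c, rfl⟩ := Submodule.mem_span_singleton.1 hw
  exact ⟨e, he, c, rfl⟩

theorem ep_le {P E : Submodule F V} {p : V} (hE : E ⊔ Submodule.span F {p} = P) : E ≤ P ∧ p ∈ P :=
  ⟨by rw [← hE]; exact le_sup_left, by rw [← hE]; exact Submodule.mem_sup_right (Submodule.mem_span_singleton_self p)⟩

theorem L1.conj {B : LinearMap.BilinForm F V} {f : F[X]} {X : V ≃ₗ[F] V} (hX : L1 B f X) {u : V ≃ₗ[F] V}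
    (hu : Iso B u) : L1 B f (u * X * u⁻¹) := by
  obtain ⟨hI, P, Q, E, p, hP, hQ, hPQ, hXQ, hE, hXE, hXp, hf, hfr⟩ := hX
  have hm : ∀ (R : Submodule F V) (v : V), v ∈ R.map (u : V →ₗ[F] V) ↔ u⁻¹ v ∈ R := by
    intro R v
    rw [Submodule.mem_map]
    constructor
    · rintro ⟨w, hw, rfl⟩
      change u⁻¹ (u w) ∈ R
      rwa [inv_app]
    · intro h
      exact ⟨_, h, app_inv u v⟩
  have ho : ∀ R : Submodule F V, Orth B R R → Orth B (R.map (u : V →ₗ[F] V)) (R.map (u : V →ₗ[F] V)) := by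
    intro R hR x hx y hy
    rw [← hu.inv x y]
    exact hR _ ((hm R x).1 hx) _ ((hm R y).1 hy)
  refine ⟨(hu.mul hI).mul hu.inv, P.map (u : V →ₗ[F] V), Q.map (u : V →ₗ[F] V), E.map (u : V →ₗ[F] V), u p,
    ho P hP, ho Q hQ, ?_, ?_, ?_, ?_, ?_, ?_, ?_⟩
  · rw [← Submodule.map_sup, hPQ, Submodule.map_top]
    exact LinearMap.range_eq_top.2 u.surjective
  · intro v hv
    rw [hm]
    change u⁻¹ (u (X (u⁻¹ v))) ∈ Q
    rw [inv_app]
    exact hXQ _ ((hm Q v).1 hv)
  · rw [← hE, Submodule.map_sup, Submodule.map_span, Set.image_singleton]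
    rfl
  · intro v hv
    rw [hm]
    change u⁻¹ (u (X (u⁻¹ v))) ∈ E
    rw [inv_app]
    exact hXE _ ((hm E v).1 hv)
  · change u (X (u⁻¹ (u p))) = u p
    rw [inv_app, hXp]
  · intro v hv
    rw [conj_aeval, hf _ ((hm E v).1 hv), map_zero]
  · rw [LinearEquiv.finrank_map_eq, LinearEquiv.finrank_map_eq, hfr]

end

section

variable {F V : Type*} [Field F] [AddCommGroup V] [Module F V] [FiniteDimensional F V]

/-- the extension of `x` by `1` on `F p` -/
theorem exists_ext {P E L : Submodule F V} (hd : Disjoint E L) (hE : E ⊔ L = P) (x : E ≃ₗ[F] E) :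
    ∃ y : P ≃ₗ[F] P, (∀ (v : P) (hv : (v : V) ∈ E), (y v : V) = x ⟨v, hv⟩) ∧
      ∀ v : P, (v : V) ∈ L → y v = v := by
  have hEP : E ≤ P := by rw [← hE]; exact le_sup_left
  have hLP : L ≤ P := by rw [← hE]; exact le_sup_right
  have hc : IsCompl (E.comap P.subtype) (L.comap P.subtype) := by
    constructor
    · rw [Submodule.disjoint_def] at hd ⊢
      intro v h1 h2
      exact Subtype.ext (hd v h1 h2)
    · rw [codisjoint_iff, eq_top_iff]
      intro v _
      have hv : (v : V) ∈ E ⊔ L := by rw [hE]; exact v.2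
      obtain ⟨e, he, l, hl, hel⟩ := Submodule.mem_sup.1 hv
      rw [Submodule.mem_sup]
      exact ⟨⟨e, hEP he⟩, he, ⟨l, hLP hl⟩, hl, Subtype.ext hel⟩
  let e := Submodule.comapSubtypeEquivOfLe hEP
  refine ⟨War.ds hc (tr e x) 1, fun v hv => ?_, fun v hv => ?_⟩
  · have h1 := ds_apply hc (tr e x) 1 ⟨v, hv⟩ 0
    simp only [Submodule.coe_zero, add_zero, map_zero] at h1
    rw [h1, tr_apply]
    have h2 : ∀ w : E, ((e.symm w : E.comap P.subtype) : P) = (⟨w, hEP w.2⟩ : P) := fun w => rfl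
    rw [h2]
    rfl
  · have h1 := ds_apply hc (tr e x) 1 0 ⟨v, hv⟩
    simp only [Submodule.coe_zero, zero_add, map_zero] at h1
    exact h1

/-- the Sylvester equation with one fixed vector -/
theorem sylvester0 {B : LinearMap.BilinForm F V} {P Q E : Submodule F V} {p : V} (hQ : Orth B Q Q) (hPQ : P ⊔ Q = ⊤)
    (hE : E ⊔ Submodule.span F {p} = P) {X : V ≃ₗ[F] V} (hX : Iso B X) (hXQ : ∀ v ∈ Q, X v ∈ Q) (hXp : X p = p)
    (f : F[X]) (hfE : ∀ v ∈ E, aeval (X : Module.End F V) f v = 0)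
    (hfQ : ∀ v ∈ Q, aeval (X : Module.End F V) f v = 0 → v = 0) (h1Q : ∀ v ∈ Q, X v = v → B v p = 0 → v = 0)
    {n : Module.End F V} (hn : n ∈ Skew B Q) (hn0 : B (n p) p = 0) :
    ∃ z ∈ Skew B Q, ∀ v, z (X v) = X (z v) + n (X v) := by
  have hXi := inv_mem_of_mem hXQ
  have hXip : X.symm p = p := by rw [LinearEquiv.symm_apply_eq, hXp]
  let S0 : Submodule F (Module.End F V) :=
    Skew B Q ⊓ LinearMap.ker ((B.flip p) ∘ₗ (LinearMap.applyₗ p : Module.End F V →ₗ[F] V))
  have hS0 : ∀ z : Module.End F V, z ∈ S0 ↔ z ∈ Skew B Q ∧ B (z p) p = 0 := fun z => Iff.rfl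
  have key : ∀ z ∈ S0, z - X.conj z ∈ S0 := by
    intro z hz
    rw [hS0] at hz ⊢
    obtain ⟨hz, hz0⟩ := hz
    refine ⟨(Skew B Q).sub_mem hz ⟨fun v => ?_, fun v hv => ?_, fun x y => ?_⟩, ?_⟩
    · exact hXQ _ (hz.1 _)
    · have : z (X.symm v) = 0 := hz.2.1 _ (hXi v hv)
      rw [LinearEquiv.conj_apply_apply, this, map_zero]
    · have h1 := hz.2.2 (X.symm x) (X.symm y)
      have h2 := hX (z (X.symm x)) (X.symm y)
      have h3 := hX (X.symm x) (z (X.symm y))
      rw [X.apply_symm_apply] at h2 h3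
      rw [LinearEquiv.conj_apply_apply, LinearEquiv.conj_apply_apply, h2, h3, h1]
    · have h1 := hX (z p) p
      rw [hXp] at h1
      rw [LinearMap.sub_apply, map_sub, LinearMap.sub_apply, LinearEquiv.conj_apply_apply, hXip, h1, hz0, sub_zero]
  let T : S0 →ₗ[F] S0 :=
    ((LinearMap.id - (X.conj : Module.End F V →ₗ[F] Module.End F V)) ∘ₗ S0.subtype).codRestrict
      S0 (fun z => key z.1 z.2)
  have hT : Function.Injective T := by
    rw [← LinearMap.ker_eq_bot, LinearMap.ker_eq_bot']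
    rintro ⟨z, hz'⟩ h
    obtain ⟨hz, hz0⟩ := (hS0 z).1 hz'
    have h0 : z - X.conj z = 0 := congrArg Subtype.val h
    have hc : ∀ v, z (X v) = X (z v) := by
      intro v
      have := LinearMap.congr_fun h0 (X v)
      rw [LinearMap.sub_apply, LinearEquiv.conj_apply_apply, X.symm_apply_apply, LinearMap.zero_apply,
        sub_eq_zero] at this
      exact this
    have hcf : ∀ p : F[X], ∀ v, z (aeval (X : Module.End F V) p v) = aeval (X : Module.End F V) p (z v) := by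
      intro p v
      induction p using Polynomial.induction_on' generalizing v with
      | add p q hp hq => simp only [map_add, LinearMap.add_apply, hp, hq]
      | monomial k a =>
        have hk : ∀ k : ℕ, ∀ v, z (((X : Module.End F V) ^ k) v) = ((X : Module.End F V) ^ k) (z v) := by
          intro k
          induction k with
          | zero => intro v; simp
          | succ k ih =>
            intro v
            rw [pow_succ, Module.End.mul_apply, Module.End.mul_apply, ih]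
            congr 1
            exact hc v
        rw [aeval_monomial]
        simp only [Module.algebraMap_end_eq_smul_id, Module.End.mul_apply, LinearMap.smul_apply,
          LinearMap.id_apply, map_smul, hk]
    have hz1 : z = 0 := by
      ext v
      have hv : v ∈ P ⊔ Q := by rw [hPQ]; trivial
      obtain ⟨w, hw, q, hq, rfl⟩ := Submodule.mem_sup.1 hv
      obtain ⟨e, he, c, rfl⟩ := mem_ep hE hw
      have k1 : z e = 0 := by
        apply hfQ _ (hz.1 e)
        rw [← hcf, hfE e he, map_zero]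
      have k2 : z p = 0 := by
        apply h1Q _ (hz.1 p) _ hz0
        rw [← hc, hXp]
      rw [map_add, map_add, map_smul, k1, k2, hz.2.1 q hq, smul_zero, add_zero, add_zero, LinearMap.zero_apply]
    exact Subtype.ext hz1
  have hS : Function.Surjective T := LinearMap.injective_iff_surjective.1 hT
  obtain ⟨⟨z, hz⟩, h⟩ := hS ⟨n, (hS0 n).2 ⟨hn, hn0⟩⟩
  have h0 : z - X.conj z = n := congrArg Subtype.val h
  refine ⟨z, ((hS0 z).1 hz).1, fun v => ?_⟩
  rw [← h0, LinearMap.sub_apply, LinearEquiv.conj_apply_apply, X.symm_apply_apply]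
  abel

variable {K : Type*} [Field K] [Algebra F K] [FiniteDimensional F K]

omit [FiniteDimensional F V] in
theorem eval_one_ne {s : ℕ} (hs : 2 ≤ s) {ξ : K} (hξ : Gx F s ξ) : (minpoly F ξ).eval 1 ≠ 0 := by
  obtain ⟨-, -, hdeg, -⟩ := hξ
  intro h4
  have h5 := degree_eq_one_of_irreducible_of_root (minpoly.irreducible (Algebra.IsIntegral.isIntegral (R := F) ξ)) h4
  have h6 : (minpoly F ξ).natDegree = 1 := natDegree_eq_of_degree_eq_some (by exact_mod_cast h5)
  omega

/-- Levi data with one fixed vector -/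
theorem levi_data {s : ℕ} (hs : 2 ≤ s) {ξ : K} (hξ : Gx F s ξ) {B : LinearMap.BilinForm F V} (hB : Alt B) (hN : Nond B)
    {P Q E : Submodule F V} {p r : V} (hP : Orth B P P) (hQ : Orth B Q Q) (hPQ : P ⊔ Q = ⊤)
    (hE : E ⊔ Submodule.span F {p} = P) (hr : r ∈ Q) (hEr : ∀ v ∈ E, B v r = 0) {Y : V ≃ₗ[F] V}
    (hY : Iso B Y) (hYE : ∀ v ∈ E, Y v ∈ E) (hYp : Y p = p) (hYQ : ∀ v ∈ Q, Y v ∈ Q)
    (hf : ∀ v ∈ E, aeval (Y : Module.End F V) (minpoly F ξ) v = 0) :
    Y r = r ∧ (∀ v ∈ Q, aeval (Y : Module.End F V) (minpoly F ξ) v = 0 → v = 0) ∧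
      (∀ v ∈ Q, Y v = v → B v p = 0 → v = 0) ∧
      (∀ v ∈ Q, B p v = 0 → aeval ((Y⁻¹ : V ≃ₗ[F] V) : Module.End F V) (minpoly F ξ) v = 0) ∧
      (∀ v ∈ P, aeval ((Y⁻¹ : V ≃ₗ[F] V) : Module.End F V) (minpoly F ξ) v = 0 → v = 0) ∧
      (∀ v ∈ P, Y v = v → B v r = 0 → v = 0 ∨ B p r = 0) := by
  have h1 := eval_one_ne hs hξ
  obtain ⟨hξ0, hfr, hdeg, c1, c2⟩ := hξ
  have hdeg' : (minpoly F ξ).natDegree = Module.finrank F K := by rw [hdeg, hfr]
  have hYi : Y⁻¹ p = p := by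
    have := inv_app Y p
    rwa [hYp] at this
  have hEi := inv_mem_of_mem hYE
  have hQi := inv_mem_of_mem hYQ
  obtain ⟨hEP, hpP⟩ := ep_le hE
  -- the restriction to `E`
  have hgr : aeval ((gr Y E hYE : E ≃ₗ[F] E) : Module.End F E) (minpoly F ξ) = 0 := by
    ext v
    have h4 := aeval_restrict (X := (Y : Module.End F V)) (x := ((gr Y E hYE : E ≃ₗ[F] E) : Module.End F E))
      (fun v => rfl) (minpoly F ξ) v
    rw [← h4, hf v v.2]
    rfl
  obtain ⟨-, s2, -, -⟩ := sing_of_aeval hξ0 hdeg' c1 c2 hgr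
  have hYiE : ∀ v : E, Y⁻¹ v = (((gr Y E hYE)⁻¹ : E ≃ₗ[F] E) v : E) := by
    intro v
    have h3 : Y (((gr Y E hYE)⁻¹ : E ≃ₗ[F] E) v : E) = v := congrArg Subtype.val (app_inv (gr Y E hYE) v)
    rw [← h3, inv_app]
  have hEinj : ∀ v ∈ E, aeval ((Y⁻¹ : V ≃ₗ[F] V) : Module.End F V) (minpoly F ξ) v = 0 → v = 0 := by
    intro v hv h0
    have h4 := aeval_restrict (X := ((Y⁻¹ : V ≃ₗ[F] V) : Module.End F V))
      (x := (((gr Y E hYE)⁻¹ : E ≃ₗ[F] E) : Module.End F E)) hYiE (minpoly F ξ) ⟨v, hv⟩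
    rw [h0] at h4
    exact congrArg Subtype.val (s2 ⟨v, hv⟩ (Subtype.ext h4.symm))
  have hpE : p ∈ E → p = 0 := by
    intro hp
    have h4 := hf p hp
    rw [aeval_fix (X := (Y : Module.End F V)) hYp] at h4
    exact (smul_eq_zero.1 h4).resolve_left h1
  have hPinj : ∀ v ∈ P, aeval ((Y⁻¹ : V ≃ₗ[F] V) : Module.End F V) (minpoly F ξ) v = 0 → v = 0 := by
    intro v hv h0
    obtain ⟨e, he, c, rfl⟩ := mem_ep hE hv
    have hfix : ((Y⁻¹ : V ≃ₗ[F] V) : Module.End F V) (c • p) = c • p := by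
      change Y⁻¹ (c • p) = _
      rw [map_smul, hYi]
    rw [map_add, aeval_fix hfix] at h0
    have h5 : (minpoly F ξ).eval 1 • (c • p) ∈ E := by
      have h6 := E.neg_mem (aeval_mem (X := ((Y⁻¹ : V ≃ₗ[F] V) : Module.End F V)) hEi (minpoly F ξ) e he)
      rwa [neg_eq_of_add_eq_zero_right h0] at h6
    have h6 : c • p = 0 := by
      by_cases hc : c = 0
      · rw [hc, zero_smul]
      have h7 : p ∈ E := by
        have h8 := E.smul_mem (c⁻¹ * ((minpoly F ξ).eval 1)⁻¹) h5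
        rw [smul_smul, smul_smul, mul_assoc c⁻¹, inv_mul_cancel₀ h1, mul_one, inv_mul_cancel₀ hc, one_smul] at h8
        exact h8
      rw [hpE h7, smul_zero]
    rw [h6, smul_zero, add_zero] at h0
    rw [h6, add_zero]
    exact hEinj e he h0
  refine ⟨?_, ?_, ?_, ?_, hPinj, ?_⟩
  · -- `Y r = r`
    have : Y r - r = 0 := by
      apply eq_zero_of_orth hN hPQ _ (hQ _ (Q.sub_mem (hYQ r hr) hr))
      intro w hw
      obtain ⟨e, he, c, rfl⟩ := mem_ep hE hw
      apply hB.zero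
      have h3 : B e (Y r) = 0 := by rw [hY.adj']; exact hEr _ (hEi e he)
      have h4 : B p (Y r) = B p r := by rw [hY.adj', hYi]
      simp only [map_add, map_sub, map_smul, LinearMap.add_apply, LinearMap.smul_apply, h3, h4, hEr e he, sub_self,
        smul_zero, add_zero]
    exact sub_eq_zero.1 this
  · intro v hv h0
    apply eq_zero_of_orth hN hPQ _ (hQ v hv)
    intro w hw
    have hmem : ∀ w ∈ P, aeval ((Y⁻¹ : V ≃ₗ[F] V) : Module.End F V) (minpoly F ξ) w ∈ P := by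
      apply aeval_mem
      intro w hw
      obtain ⟨e, he, c, rfl⟩ := mem_ep hE hw
      change Y⁻¹ _ ∈ P
      rw [map_add, map_smul, hYi]
      exact P.add_mem (hEP (hEi e he)) (P.smul_mem _ hpP)
    let τ : P →ₗ[F] P := (aeval ((Y⁻¹ : V ≃ₗ[F] V) : Module.End F V) (minpoly F ξ)).restrict hmem
    have hτ : Function.Injective τ := by
      rw [← LinearMap.ker_eq_bot, LinearMap.ker_eq_bot']
      intro w hw
      exact Subtype.ext (hPinj w w.2 (congrArg Subtype.val hw))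
    obtain ⟨w', hw'⟩ := (LinearMap.injective_iff_surjective.1 hτ) ⟨w, hw⟩
    have h3 := aeval_adj hY (minpoly F ξ) (w' : V) v
    rw [h0, map_zero] at h3
    have h4 : aeval ((Y⁻¹ : V ≃ₗ[F] V) : Module.End F V) (minpoly F ξ) (w' : V) = w := congrArg Subtype.val hw'
    rw [h4] at h3
    exact hB.zero h3.symm
  · intro v hv h0 h3
    apply eq_zero_of_orth hN hPQ _ (hQ v hv)
    intro w hw
    obtain ⟨e, he, c, rfl⟩ := mem_ep hE hw
    have hfix : ((Y⁻¹ : V ≃ₗ[F] V) : Module.End F V) v = v := by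
      change Y⁻¹ v = v
      nth_rewrite 1 [← h0]
      exact inv_app Y v
    have h4 := aeval_adj hY (minpoly F ξ) v e
    rw [hf e he, map_zero, aeval_fix hfix, map_smul, LinearMap.smul_apply, smul_eq_mul] at h4
    rw [map_add, map_smul, h3, smul_zero, add_zero]
    exact (mul_eq_zero.1 h4.symm).resolve_left h1
  · intro v hv h0
    have hm := aeval_mem (X := ((Y⁻¹ : V ≃ₗ[F] V) : Module.End F V)) hQi (minpoly F ξ) v hv
    apply eq_zero_of_orth hN hPQ _ (hQ _ hm)
    intro w hw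
    obtain ⟨e, he, c, rfl⟩ := mem_ep hE hw
    have h3 := aeval_adj hY (minpoly F ξ) v e
    rw [hf e he, map_zero] at h3
    have h4 := aeval_adj hY (minpoly F ξ) v p
    rw [aeval_fix (X := (Y : Module.End F V)) hYp, map_smul, hB.zero h0, smul_zero] at h4
    rw [map_add, map_smul, ← h3, ← h4, smul_zero, add_zero]
  · intro v hv h0 h3
    obtain ⟨e, he, c, rfl⟩ := mem_ep hE hv
    by_cases hpr : B p r = 0
    · exact Or.inr hpr
    left
    rw [map_add, LinearMap.add_apply, hEr e he, zero_add, map_smul, LinearMap.smul_apply, smul_eq_mul] at h3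
    have hc := (mul_eq_zero.1 h3).resolve_right hpr
    rw [hc, zero_smul, add_zero] at h0 ⊢
    have h4 := hf e he
    rw [aeval_fix (X := (Y : Module.End F V)) h0] at h4
    exact (smul_eq_zero.1 h4).resolve_left h1

theorem cc1_of_corner {s : ℕ} (hs : 2 ≤ s) {ξ : K} (hξ : Gx F s ξ) {B : LinearMap.BilinForm F V} (hB : Alt B)
    (hN : Nond B) {P Q E : Submodule F V} {p r : V} (hP : Orth B P P) (hQ : Orth B Q Q) (hPQ : P ⊔ Q = ⊤)
    (hE : E ⊔ Submodule.span F {p} = P) (hfr : Module.finrank F E + 1 = Module.finrank F P) (hr : r ∈ Q)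
    (hEr : ∀ v ∈ E, B v r = 0) (hpr : B p r ≠ 0) {A : E ≃ₗ[F] E} (hA : FF (minpoly F ξ) A) {g : V ≃ₗ[F] V}
    (hg : Iso B g) (hc : ∀ v : E, g v - A v ∈ Q) (hcp : g p - p ∈ Q) (hp0 : B (g p) p = 0) (hr0 : B (g r) r = 0) :
    CC1 B (minpoly F ξ) g := by
  obtain ⟨x, z, hx, hz, hxz⟩ := hA
  obtain ⟨hEP, hpP⟩ := ep_le hE
  have hdis : Disjoint E (Submodule.span F {p}) := by
    rw [Submodule.disjoint_def]
    intro v hv hv'
    obtain ⟨c, rfl⟩ := Submodule.mem_span_singleton.1 hv'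
    have h1 := hEr _ hv
    rw [map_smul, LinearMap.smul_apply, smul_eq_mul] at h1
    rw [(mul_eq_zero.1 h1).resolve_right hpr, zero_smul]
  obtain ⟨x', hx1, hx2⟩ := exists_ext hdis hE x
  obtain ⟨z', hz1, hz2⟩ := exists_ext hdis hE z
  obtain ⟨X, hX, hXx, hXQ⟩ := levi hB hN hP hQ hPQ x'
  obtain ⟨Z, hZ, hZz, hZQ⟩ := levi hB hN hP hQ hPQ z'
  have hXe : ∀ v : E, X v = x v := fun v => by
    have h1 := hXx ⟨v, hEP v.2⟩
    rw [h1, hx1 ⟨v, hEP v.2⟩ v.2]
  have hZe : ∀ v : E, Z v = z v := fun v => by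
    have h1 := hZz ⟨v, hEP v.2⟩
    rw [h1, hz1 ⟨v, hEP v.2⟩ v.2]
  have hXE : ∀ v ∈ E, X v ∈ E := fun v hv => by rw [hXe ⟨v, hv⟩]; exact (x ⟨v, hv⟩).2
  have hZE : ∀ v ∈ E, Z v ∈ E := fun v hv => by rw [hZe ⟨v, hv⟩]; exact (z ⟨v, hv⟩).2
  have hXp : X p = p := by
    have h1 := hXx ⟨p, hpP⟩
    rw [h1, hx2 _ (Submodule.mem_span_singleton_self p)]
  have hZp : Z p = p := by
    have h1 := hZz ⟨p, hpP⟩
    rw [h1, hz2 _ (Submodule.mem_span_singleton_self p)]
  have hXf : ∀ v ∈ E, aeval (X : Module.End F V) (minpoly F ξ) v = 0 := by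
    intro v hv
    have h1 := aeval_restrict (X := (X : Module.End F V)) (x := (x : Module.End F E)) hXe (minpoly F ξ) ⟨v, hv⟩
    rw [h1, hx]
    rfl
  have hZi : ∀ v : E, Z⁻¹ v = (z⁻¹ v : E) := by
    intro v
    have h3 : Z ((z⁻¹ v : E) : V) = v := by
      rw [hZe]
      exact congrArg Subtype.val (app_inv z v)
    rw [← h3, inv_app]
  have hZf : ∀ v ∈ E, aeval ((Z⁻¹ : V ≃ₗ[F] V) : Module.End F V) (minpoly F ξ) v = 0 := by
    intro v hv
    have h1 := aeval_restrict (X := ((Z⁻¹ : V ≃ₗ[F] V) : Module.End F V)) (x := ((z⁻¹ : E ≃ₗ[F] E) : Module.End F E))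
      hZi (minpoly F ξ) ⟨v, hv⟩
    rw [h1, hz]
    rfl
  have hZip : Z⁻¹ p = p := by
    have := inv_app Z p
    rwa [hZp] at this
  obtain ⟨hXr, xa, xb, -, -, -⟩ := levi_data hs hξ hB hN hP hQ hPQ hE hr hEr hX hXE hXp hXQ hXf
  obtain ⟨hZr', -, -, zc, zd, ze⟩ := levi_data hs hξ hB hN hP hQ hPQ hE hr hEr hZ.inv (inv_mem_of_mem hZE) hZip
    (inv_mem_of_mem hZQ) hZf
  rw [inv_inv] at zc zd
  have hZr : Z r = r := by
    have := app_inv Z r
    rwa [hZr'] at this
  -- the other side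
  obtain ⟨E', hE'⟩ : ∃ E' : Submodule F V, ∀ v, v ∈ E' ↔ v ∈ Q ∧ B p v = 0 :=
    ⟨Q ⊓ LinearMap.ker (B p), fun v => Iff.rfl⟩
  have hE'Q : E' ⊔ Submodule.span F {r} = Q := by
    apply le_antisymm
    · refine sup_le (fun v hv => ((hE' v).1 hv).1) ((Submodule.span_singleton_le_iff_mem _ _).2 hr)
    · intro v hv
      have h1 : v - (B p v / B p r) • r ∈ E' := by
        rw [hE']
        refine ⟨Q.sub_mem hv (Q.smul_mem _ hr), ?_⟩
        rw [map_sub, map_smul, smul_eq_mul, div_mul_cancel₀ _ hpr, sub_self]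
      have h2 := Submodule.add_mem_sup h1 (Submodule.smul_mem _ (B p v / B p r) (Submodule.mem_span_singleton_self r))
      rwa [sub_add_cancel] at h2
  have hfr' : Module.finrank F E' + 1 = Module.finrank F Q := by
    have hr1 : r ≠ 0 := by rintro rfl; simp at hpr
    have h1 := Submodule.finrank_sup_add_finrank_inf_eq E' (Submodule.span F {r})
    have h2 : E' ⊓ Submodule.span F {r} = ⊥ := by
      rw [eq_bot_iff]
      rintro v ⟨hv, hv'⟩
      obtain ⟨c, rfl⟩ := Submodule.mem_span_singleton.1 hv'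
      have h3 := ((hE' _).1 hv).2
      rw [map_smul, smul_eq_mul] at h3
      rw [Submodule.mem_bot, (mul_eq_zero.1 h3).resolve_right hpr, zero_smul]
    rw [h2, finrank_bot, hE'Q, finrank_span_singleton hr1] at h1
    omega
  have hZE' : ∀ v ∈ E', Z v ∈ E' := by
    intro v hv
    obtain ⟨h1, h2⟩ := (hE' v).1 hv
    refine (hE' _).2 ⟨hZQ v h1, ?_⟩
    rw [hZ.adj', hZip, h2]
  have hXP : ∀ v ∈ P, X v ∈ P := fun v hv => by rw [hXx ⟨v, hv⟩]; exact (x' ⟨v, hv⟩).2
  have hZP : ∀ v ∈ P, Z v ∈ P := fun v hv => by rw [hZz ⟨v, hv⟩]; exact (z' ⟨v, hv⟩).2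
  have hQP : Q ⊔ P = ⊤ := by rw [sup_comm]; exact hPQ
  have hLX : L1 B (minpoly F ξ) X := ⟨hX, P, Q, E, p, hP, hQ, hPQ, hXQ, hE, hXE, hXp, hXf, hfr⟩
  have hLZ : L1 B (minpoly F ξ) Z := ⟨hZ, Q, P, E', r, hQ, hP, hQP, hZP, hE'Q, hZE', hZr,
    fun v hv => zc v ((hE' v).1 hv).1 ((hE' v).1 hv).2, hfr'⟩
  -- `h = g (X Z)⁻¹`
  have hXZP : ∀ v ∈ P, (X * Z) v ∈ P := fun v hv => hXP _ (hZP v hv)
  have hXZp : (X * Z) p = p := by rw [LinearEquiv.mul_apply, hZp, hXp]
  have hXZr : (X * Z) r = r := by rw [LinearEquiv.mul_apply, hZr, hXr]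
  obtain ⟨n, m, hn, hm, hnm⟩ := c1_factor hB hN hP hQ hPQ (g := g * (X * Z)⁻¹) (hg.mul (hX.mul hZ).inv) (by
    intro v hv
    obtain ⟨e, he, c, rfl⟩ := mem_ep hE hv
    have hpi : (X * Z)⁻¹ p = p := by
      have := inv_app (X * Z) p
      rwa [hXZp] at this
    have hXZE : ∀ v ∈ E, (X * Z) v ∈ E := fun v hv => hXE _ (hZE v hv)
    have h1 := inv_mem_of_mem hXZE e he
    have h2 := hc ⟨_, h1⟩
    have h3 : ((A ⟨_, h1⟩ : E) : V) = e := by
      rw [hxz, ← hXe, ← hZe]
      exact app_inv (X * Z) e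
    rw [h3] at h2
    have e1 : (g * (X * Z)⁻¹) (e + c • p) - (e + c • p) = (g ((X * Z)⁻¹ e) - e) + c • (g p - p) := by
      rw [LinearEquiv.mul_apply, map_add, map_smul, hpi, map_add, map_smul, smul_sub]
      abel
    rw [e1]
    exact Q.add_mem h2 (Q.smul_mem _ hcp))
  have hgn : g = uni n (skew_sq hn) * uni m (skew_sq hm) * (X * Z) := by
    rw [← hnm]; group
  have hn0 : B (n p) p = 0 := by
    have h1 : g p = p + n p := by
      rw [hgn, LinearEquiv.mul_apply, hXZp, LinearEquiv.mul_apply, uni_apply, uni_apply, hm.2.1 p hpP, add_zero]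
    rw [h1, map_add, LinearMap.add_apply, hB p, zero_add] at hp0
    exact hp0
  have hm0 : B (m r) r = 0 := by
    have h1 : g r = r + m r + n (m r) := by
      rw [hgn, LinearEquiv.mul_apply, hXZr, LinearEquiv.mul_apply, uni_apply, uni_apply, map_add, hn.2.1 r hr,
        zero_add]
    rw [h1, map_add, map_add, LinearMap.add_apply, LinearMap.add_apply, hB r, zero_add, hQ _ (hn.1 _) r hr,
      add_zero] at hr0
    exact hr0
  have hm' := skew_conj hX hXP hm
  have hXir : X.symm r = r := by rw [LinearEquiv.symm_apply_eq, hXr]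
  have hm0' : B ((X.symm.conj m) r) r = 0 := by
    have h1 : (X.symm.conj m) r = X.symm (m (X r)) := rfl
    rw [h1, hXr]
    have h2 := hX (X.symm (m r)) r
    rw [X.apply_symm_apply, hXr] at h2
    rw [← h2, hm0]
  have e0 : uni m (skew_sq hm) * X = X * uni (X.symm.conj m) (skew_sq hm') := by
    ext v
    rw [LinearEquiv.mul_apply, LinearEquiv.mul_apply, uni_apply, uni_apply, map_add]
    congr 1
    exact (X.apply_symm_apply _).symm
  obtain ⟨s, hs', hsX⟩ := sylvester0 hQ hPQ hE hX hXQ hXp (minpoly F ξ) hXf xa xb hn hn0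
  have e1 : uni s (skew_sq hs') * X = uni n (skew_sq hn) * X * uni s (skew_sq hs') := by
    ext v
    simp only [LinearEquiv.mul_apply, uni_apply, map_add]
    have : n (X (s v)) = 0 := hn.2.1 _ (hXQ _ (hs'.1 v))
    rw [hsX, this]
    abel
  obtain ⟨t, ht, htZ⟩ := sylvester0 hP hQP hE'Q hZ hZP hZr (minpoly F ξ)
    (fun v hv => zc v ((hE' v).1 hv).1 ((hE' v).1 hv).2) zd
    (fun v hv h1 h2 => (ze v hv (by
      have := inv_app Z v
      rwa [h1] at this) h2).resolve_right hpr) hm' hm0'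
  have e2 : uni t (skew_sq ht) * Z = uni (X.symm.conj m) (skew_sq hm') * Z * uni t (skew_sq ht) := by
    ext v
    simp only [LinearEquiv.mul_apply, uni_apply, map_add]
    have : (X.symm.conj m) (Z (t v)) = 0 := hm'.2.1 _ (hZP _ (ht.1 v))
    rw [htZ, this]
    abel
  have hui : Iso B (uni s (skew_sq hs')) := skew_iso hQ hs'
  have hti : Iso B (uni t (skew_sq ht)) := skew_iso hP ht
  generalize uni n (skew_sq hn) = a at *
  generalize uni m (skew_sq hm) = b at *
  generalize uni (X.symm.conj m) (skew_sq hm') = b' at *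
  generalize uni s (skew_sq hs') = u at *
  generalize uni t (skew_sq ht) = w at *
  have k1 : a * X = u * X * u⁻¹ := by rw [e1]; group
  have k2 : b' * Z = w * Z * w⁻¹ := by rw [e2]; group
  refine ⟨u * X * u⁻¹, w * Z * w⁻¹, hLX.conj hui, hLZ.conj hti, ?_⟩
  rw [← k1, ← k2, hgn]
  calc a * b * (X * Z) = a * (b * X) * Z := by group
    _ = a * (X * b') * Z := by rw [e0]
    _ = _ := by group

end

end Cfsg.Agent.H845.TW
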