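import Cfsg.Agent.H845.TW.Eng

/-!
# S2452, S2464 for `PSp_2n(q)`, `q` odd, `4 ∣ n`: sums

* `cc1_sup` : `g = 1` on a plane, `CC` on the complement.
* `cc1_mix` : `SP` on `R₁`, a mixed corner on `R₂`.
-/

set_option autoImplicit false
open Polynomial

noncomputable section

namespace Cfsg.Agent.H845.TW

open Cfsg.Agent.H144 Cfsg.Agent.H144.War Cfsg.Agent.H843.TC6

variable {F V : Type} [Field F] [AddCommGroup V] [Module F V] [FiniteDimensional F V]

theorem plane_pair [Finite F] {B : LinearMap.BilinForm F V} (hB : Alt B) {S : Submodule F V} (hS : Nd B S)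
    (hS2 : Module.finrank F S = 2) : ∃ e ∈ S, ∃ f ∈ S, Submodule.span F {e} ⊔ Submodule.span F {f} = S ∧ e ≠ 0 := by
  obtain ⟨P, Q, k1, k2, k3, -⟩ := exists_lag hB hS (Iso.one B) (fun v _ => rfl)
  have h1 := finrank_lag hB hS k1 k2 k3
  have h2 := finrank_lag hB hS k2 k1 (by rw [sup_comm]; exact k3)
  have hP : Module.finrank F P = 1 := by omega
  have hQ : Module.finrank F Q = 1 := by omega
  have key : ∀ T : Submodule F V, Module.finrank F T = 1 → ∃ e ∈ T, e ≠ 0 ∧ Submodule.span F {e} = T := by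
    intro T hT
    obtain ⟨v, hv, hv'⟩ := finrank_eq_one_iff'.1 hT
    refine ⟨v, v.2, fun h => hv (Subtype.ext h), le_antisymm ((Submodule.span_singleton_le_iff_mem _ _).2 v.2) ?_⟩
    intro w hw
    obtain ⟨c, hc⟩ := hv' ⟨w, hw⟩
    exact Submodule.mem_span_singleton.2 ⟨c, congrArg Subtype.val hc⟩
  obtain ⟨e, he, he0, heP⟩ := key P hP
  obtain ⟨f, hf, hf0, hfQ⟩ := key Q hQ
  have hPS : P ≤ S := by rw [← k3]; exact le_sup_left
  have hQS : Q ≤ S := by rw [← k3]; exact le_sup_right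
  exact ⟨e, hPS he, f, hQS hf, by rw [heP, hfQ, k3], he0⟩

theorem l1_ds [Finite F] {B : LinearMap.BilinForm F V} (hB : Alt B) {R S : Submodule F V} (h : IsCompl R S)
    (hRS : Orth B R S) (hR : Nd B R) (hS : Nd B S) (hS2 : Module.finrank F S = 2) {x : R ≃ₗ[F] R} {f : F[X]}
    (hx : LT (B.restrict R) f x) : L1 B f (ds h x 1) := by
  obtain ⟨hI, P, Q, hP, hQ, hPQ, hXP, hXQ, hf⟩ := hx
  obtain ⟨e, he, e', he', hee, he0⟩ := plane_pair hB hS hS2
  have m1 : ∀ {T : Submodule F R} {v : V}, v ∈ T.map R.subtype → ∃ hv : v ∈ R, (⟨v, hv⟩ : R) ∈ T := by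
    rintro T v ⟨w, hw, rfl⟩
    exact ⟨w.2, hw⟩
  have mR : ∀ T : Submodule F R, T.map R.subtype ≤ R := fun T => Submodule.map_subtype_le R T
  have lS : ∀ {t : V}, t ∈ S → Submodule.span F {t} ≤ S := fun ht => (Submodule.span_singleton_le_iff_mem _ _).2 ht
  have o0 : ∀ {T : Submodule F R}, Orth (B.restrict R) T T → Orth B (T.map R.subtype) (T.map R.subtype) := by
    intro T hT x hx y hy
    obtain ⟨hx1, hx2⟩ := m1 hx
    obtain ⟨hy1, hy2⟩ := m1 hy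
    exact hT _ hx2 _ hy2
  have o1 : ∀ {T : Submodule F R} {t : V}, Orth (B.restrict R) T T → t ∈ S →
      Orth B (T.map R.subtype ⊔ Submodule.span F {t}) (T.map R.subtype ⊔ Submodule.span F {t}) := by
    intro T t hT ht
    refine isotropic_sup hB (o0 hT) ?_ (fun x hx y hy => hRS x (mR _ hx) y (lS ht hy))
    intro x hx y hy
    obtain ⟨a, rfl⟩ := Submodule.mem_span_singleton.1 hx
    obtain ⟨b, rfl⟩ := Submodule.mem_span_singleton.1 hy
    rw [map_smul, map_smul, LinearMap.smul_apply, hB t, smul_zero, smul_zero]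
  have e1 : ∀ v : R, (ds h x 1 : V ≃ₗ[F] V) v = x v := by
    intro v
    have := ds_apply h x 1 v 0
    simpa using this
  have e2 : ∀ v ∈ S, (ds h x 1 : V ≃ₗ[F] V) v = v := by
    intro v hv
    have := ds_apply h x 1 0 ⟨v, hv⟩
    simpa using this
  have dm : ∀ {T : Submodule F R}, (∀ v ∈ T, x v ∈ T) → ∀ v ∈ T.map R.subtype, ds h x 1 v ∈ T.map R.subtype := by
    intro T hT v hv
    obtain ⟨h1, h2⟩ := m1 hv
    rw [show v = ((⟨v, h1⟩ : R) : V) from rfl, e1]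
    exact ⟨_, hT _ h2, rfl⟩
  refine ⟨ds_iso hB h hRS hI (Iso.one _), P.map R.subtype ⊔ Submodule.span F {e},
    Q.map R.subtype ⊔ Submodule.span F {e'}, P.map R.subtype, e, o1 hP he, o1 hQ he', ?_, ?_, rfl, dm hXP, e2 e he, ?_, ?_⟩
  · rw [sup_sup_sup_comm, ← Submodule.map_sup, hPQ, Submodule.map_subtype_top, hee, h.sup_eq_top]
  · intro v hv
    obtain ⟨a, ha, b, hb, rfl⟩ := Submodule.mem_sup.1 hv
    rw [map_add, e2 b (lS he' hb)]
    exact Submodule.add_mem_sup (dm hXQ a ha) hb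
  · intro v hv
    obtain ⟨h1, h2⟩ := m1 hv
    have k1 := aeval_restrict (X := ((ds h x 1 : V ≃ₗ[F] V) : Module.End F V)) (x := (x : Module.End F R)) e1 f ⟨v, h1⟩
    simp only at k1
    rw [k1, hf _ h2]
    rfl
  · rw [finrank_sup_of_orth hB hRS hR (mR _) (lS he), finrank_span_singleton he0]

theorem cc1_sup [Finite F] {B : LinearMap.BilinForm F V} (hB : Alt B) {R S : Submodule F V}
    (hRS : Orth B R S) (hR : Nd B R) (hS : Nd B S) (hS2 : Module.finrank F S = 2) (htop : R ⊔ S = ⊤) {f : F[X]}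
    {g : V ≃ₗ[F] V} (hIR : Inv g R) (hgS : ∀ v ∈ S, g v = v) (h : CC (B.restrict R) f (gr g R hIR)) : CC1 B f g := by
  have hc : IsCompl R S := ⟨disjoint_of_orth hB hRS hR, codisjoint_iff.2 htop⟩
  obtain ⟨x, y, hx, hy, hxy⟩ := h
  refine ⟨War.ds hc x 1, War.ds hc y 1, l1_ds hB hc hRS hR hS hS2 hx, l1_ds hB hc hRS hR hS hS2 hy, ?_⟩
  ext v
  obtain ⟨r, hr, s, hs, rfl⟩ := mem_sup_top hc.sup_eq_top v
  rw [LinearEquiv.mul_apply]
  have h1 := ds_apply hc y 1 ⟨r, hr⟩ ⟨s, hs⟩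
  simp only at h1
  rw [h1, ds_apply, map_add, hgS s hs]
  have h2 := congrArg (fun t : R ≃ₗ[F] R => (t ⟨r, hr⟩ : V)) hxy
  simp only [LinearEquiv.mul_apply] at h2
  rw [← h2]
  rfl

variable {K : Type} [Field K] [Algebra F K] [FiniteDimensional F K]

theorem ff_sub (h2 : (2 : F) ≠ 0) {s a b : ℕ} {ξ : K} (hξ : Gx F s ξ) {U W : Submodule F V}
    (hU : Module.finrank F U = a) (hW : Module.finrank F W = b) (hUW : Module.finrank F ↥(U ⊔ W) = a + b) (ha : 1 ≤ a)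
    (hb : Even b) (hab : a + b = s) : ∃ A : ↥(U ⊔ W) ≃ₗ[F] ↥(U ⊔ W), FF (minpoly F ξ) A ∧
      ∀ (u : V) (hu : u ∈ U) (w : V) (hw : w ∈ W),
        (A ⟨u + w, Submodule.add_mem_sup hu hw⟩ : V) = u - w := by
  have hle : ∀ v : ↥(U ⊔ W), v ∈ U.comap (U ⊔ W).subtype ⊔ W.comap (U ⊔ W).subtype := by
    intro v
    obtain ⟨u, hu, w, hw, huw⟩ := Submodule.mem_sup.1 v.2
    have e1 : v = (⟨u, Submodule.mem_sup_left hu⟩ : ↥(U ⊔ W)) + ⟨w, Submodule.mem_sup_right hw⟩ := Subtype.ext huw.symm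
    rw [e1]
    exact Submodule.add_mem_sup hu hw
  have hU' : Module.finrank F (U.comap (U ⊔ W).subtype) = a := by
    rw [(Submodule.comapSubtypeEquivOfLe le_sup_left).finrank_eq, hU]
  have hW' : Module.finrank F (W.comap (U ⊔ W).subtype) = b := by
    rw [(Submodule.comapSubtypeEquivOfLe le_sup_right).finrank_eq, hW]
  have htop : U.comap (U ⊔ W).subtype ⊔ W.comap (U ⊔ W).subtype = ⊤ := eq_top_iff.2 (fun v _ => hle v)
  have hc : IsCompl (U.comap (U ⊔ W).subtype) (W.comap (U ⊔ W).subtype) := isCompl_of_finrank hUW hU' hW' htop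
  let A : ↥(U ⊔ W) ≃ₗ[F] ↥(U ⊔ W) := War.ds hc 1 (LinearEquiv.neg F)
  have hA1 : ∀ v ∈ U.comap (U ⊔ W).subtype, A v = v := by
    intro v hv
    have := ds_apply hc 1 (LinearEquiv.neg F) ⟨v, hv⟩ 0
    simpa using this
  have hA2 : ∀ v ∈ W.comap (U ⊔ W).subtype, A v = -v := by
    intro v hv
    have := ds_apply hc 1 (LinearEquiv.neg F) 0 ⟨v, hv⟩
    simpa using this
  refine ⟨A, ff_mix h2 hξ ha hb hab (by rw [hUW, hab]) hU' hW' htop hA1 hA2, fun u hu w hw => ?_⟩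
  have e1 : (⟨u + w, Submodule.add_mem_sup hu hw⟩ : ↥(U ⊔ W)) =
      (⟨u, Submodule.mem_sup_left hu⟩ : ↥(U ⊔ W)) + ⟨w, Submodule.mem_sup_right hw⟩ := rfl
  rw [e1, map_add, hA1 _ hu, hA2 _ hw, sub_eq_add_neg]
  rfl

theorem cc1_mix (h2 : (2 : F) ≠ 0) {s a α β : ℕ} (hs : 2 ≤ s) {ξ : K} (hξ : Gx F s ξ) {B : LinearMap.BilinForm F V}
    (hB : Alt B) (hN : Nond B) {R₁ R₂ : Submodule F V} (ho : Orth B R₁ R₂) (n1 : Nd B R₁) (n2 : Nd B R₂)
    (htop : R₁ ⊔ R₂ = ⊤) (hR₁ : Module.finrank F R₁ = 2 * a) (hR₂ : Module.finrank F R₂ = 2 * (α + β)) (ha : 2 ≤ a)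
    (hβ : Even β) (hs' : a + α + β = s + 1) {g : V ≃ₗ[F] V} (hg : Iso B g) (h1 : SP B g R₁) (hm : Mix B g α β R₂) :
    CC1 B (minpoly F ξ) g := by
  obtain ⟨P, Q, hP, hQ, hPQ, hPg, p, hp, r, hr, hpr, hp0, hr0⟩ := h1
  obtain ⟨U, W, Q', m1, m3, m4, m5, m6, m7, m8⟩ := hm
  have hPR : P ≤ R₁ := by rw [← hPQ]; exact le_sup_left
  have hQR : Q ≤ R₁ := by rw [← hPQ]; exact le_sup_right
  have hUWR : U ⊔ W ≤ R₂ := by rw [← m4]; exact le_sup_left
  have hQR' : Q' ≤ R₂ := by rw [← m4]; exact le_sup_right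
  have hUR : U ≤ R₂ := le_sup_left.trans hUWR
  have hWR : W ≤ R₂ := le_sup_right.trans hUWR
  have fP := finrank_lag hB n1 hP hQ hPQ
  have fUW := finrank_lag hB n2 m1 m3 m4
  obtain ⟨E₁, hE₁⟩ : ∃ E₁ : Submodule F V, ∀ v, v ∈ E₁ ↔ v ∈ P ∧ B v r = 0 :=
    ⟨P ⊓ LinearMap.ker (B.flip r), fun v => Iff.rfl⟩
  have hE₁P : E₁ ≤ P := fun v hv => ((hE₁ v).1 hv).1
  have hEp : E₁ ⊔ Submodule.span F {p} = P := by
    apply le_antisymm
    · exact sup_le hE₁P ((Submodule.span_singleton_le_iff_mem _ _).2 hp)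
    · intro v hv
      have h1 : v - (B v r / B p r) • p ∈ E₁ := by
        rw [hE₁]
        refine ⟨P.sub_mem hv (P.smul_mem _ hp), ?_⟩
        rw [map_sub, LinearMap.sub_apply, map_smul, LinearMap.smul_apply, smul_eq_mul, div_mul_cancel₀ _ hpr, sub_self]
      have h2 := Submodule.add_mem_sup h1 (Submodule.smul_mem _ (B v r / B p r) (Submodule.mem_span_singleton_self p))
      rwa [sub_add_cancel] at h2
  have fE₁ : Module.finrank F E₁ + 1 = Module.finrank F P := by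
    have hp1 : p ≠ 0 := by rintro rfl; simp at hpr
    have h1 := Submodule.finrank_sup_add_finrank_inf_eq E₁ (Submodule.span F {p})
    have h2 : E₁ ⊓ Submodule.span F {p} = ⊥ := by
      rw [eq_bot_iff]
      rintro v ⟨hv, hv'⟩
      obtain ⟨c, rfl⟩ := Submodule.mem_span_singleton.1 hv'
      have h3 := ((hE₁ _).1 hv).2
      rw [map_smul, LinearMap.smul_apply, smul_eq_mul] at h3
      rw [Submodule.mem_bot, (mul_eq_zero.1 h3).resolve_right hpr, zero_smul]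
    rw [h2, finrank_bot, hEp, finrank_span_singleton hp1] at h1
    omega
  have fU' : Module.finrank F ↥(E₁ ⊔ U) = a - 1 + α := by
    rw [finrank_sup_of_orth hB ho n1 (hE₁P.trans hPR) hUR, m5]
    omega
  have fE : Module.finrank F ↥(E₁ ⊔ U ⊔ W) = a - 1 + α + β := by
    rw [sup_assoc, finrank_sup_of_orth hB ho n1 (hE₁P.trans hPR) hUWR]
    omega
  obtain ⟨A, hA, hAv⟩ := ff_sub h2 hξ fU' m6 fE (by omega) hβ (by omega)
  have hPo : Orth B (P ⊔ (U ⊔ W)) (P ⊔ (U ⊔ W)) :=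
    isotropic_sup hB hP m1 (fun x hx y hy => ho x (hPR hx) y (hUWR hy))
  have hQo : Orth B (Q ⊔ Q') (Q ⊔ Q') := isotropic_sup hB hQ m3 (fun x hx y hy => ho x (hQR hx) y (hQR' hy))
  have hPQ' : P ⊔ (U ⊔ W) ⊔ (Q ⊔ Q') = ⊤ := by rw [sup_sup_sup_comm, hPQ, m4, htop]
  have hEE : E₁ ⊔ U ⊔ W ⊔ Submodule.span F {p} = P ⊔ (U ⊔ W) := by
    rw [← hEp, sup_assoc E₁ U W, sup_right_comm]
  refine cc1_of_corner hs hξ hB hN hPo hQo hPQ' hEE ?_ (Submodule.mem_sup_left hr) ?_ hpr hA hg ?_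
    (Submodule.mem_sup_left (hPg p hp)) hp0 hr0
  · rw [fE, finrank_sup_of_orth hB ho n1 hPR hUWR]
    omega
  · intro v hv
    rw [sup_assoc] at hv
    obtain ⟨x, hx, y, hy, rfl⟩ := Submodule.mem_sup.1 hv
    rw [map_add, LinearMap.add_apply, ((hE₁ x).1 hx).2, hB.zero (ho r (hQR hr) y (hUWR hy)), add_zero]
  · intro v
    obtain ⟨u, hu, w, hw, huw⟩ := Submodule.mem_sup.1 v.2
    have hv : v = ⟨u + w, Submodule.add_mem_sup hu hw⟩ := Subtype.ext huw.symm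
    rw [hv, hAv u hu w hw]
    obtain ⟨x, hx, y, hy, rfl⟩ := Submodule.mem_sup.1 hu
    have e1 : g ((⟨x + y + w, Submodule.add_mem_sup hu hw⟩ : ↥(E₁ ⊔ U ⊔ W)) : V) - (x + y - w) =
        (g x - x) + ((g y - y) + (g w + w)) := by
      rw [map_add, map_add]
      abel
    rw [e1]
    exact Submodule.add_mem_sup (hPg x (hE₁P hx)) (Q'.add_mem (m7 y hy) (m8 w hw))

end Cfsg.Agent.H845.TW
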